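import Mathlib
import Cfsg.Agent.Lib.StdInt.Defs
import Cfsg.Agent.Lib.Co3Rec.Loc

/-! The facts of `StdInt.Defs` in the model of `2 · Sp(6, 2)` inside `Co₃`. -/

set_option autoImplicit false
set_option maxRecDepth 100000
set_option Elab.async false

namespace CfsgLib.StdInt.S6

open CfsgLib.Comput CfsgLib.Amalg

section gen
variable {G G' : Type*} [Group G] [Group G']

/-- the condition `nrm` at one involution -/
def Nrm (s : G) : Prop := ∀ w, Odd (orderOf w) → Commute w s →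
  Odd (Nat.card (Nc s w)) ∨ ∃ r ∈ Nc s w, r * r = 1 ∧ r ≠ 1 ∧ r ≠ s

/-- the condition `fix` at one involution -/
def Fix (t s : G) : Prop := ∀ a, Commute a s → (∀ v ∈ Wf (MulAut.conj s), Two v → Commute a v) →
  a = 1 ∨ a = t ∨ a = s ∨ a = s * t

theorem Nrm.map {s : G} (h : Nrm s) (e : G ≃* G') : Nrm (e s) := fun w h4 h5 => by
  obtain ⟨w, rfl⟩ := e.surjective w
  rw [card_Nc]
  exact (h w (by rwa [e.orderOf_eq] at h4) ((comm_map e).1 h5)).imp_right fun ⟨r, r1, r2, r3, r4⟩ =>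
    ⟨e r, map_Nc e s w ▸ Subgroup.mem_map_of_mem _ r1, (sq_map e).2 r2, e.map_ne_one_iff.2 r3,
      fun x => r4 (e.injective x)⟩

theorem Fix.map {t s : G} (h : Fix t s) (e : G ≃* G') : Fix (e t) (e s) := fun a h1 h2 => by
  obtain ⟨a, rfl⟩ := e.surjective a
  rw [← map_mul, e.map_eq_one_iff, e.apply_eq_iff_eq, e.apply_eq_iff_eq, e.apply_eq_iff_eq]
  exact h a ((comm_map e).1 h1) fun v hv h3 => (comm_map e).1
    (h2 _ ((mem_Wf_back e).1 (by rwa [back_conj])) ((two_map e).2 h3))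

theorem wf_map {t l : G} (h : t ∈ Wf (MulAut.conj l)) (e : G ≃* G') : e t ∈ Wf (MulAut.conj (e l)) :=
  (mem_Wf_back e).1 (by rwa [back_conj])

theorem Nc_one (s : G) : Nc s 1 = ⊥ := by
  rw [eq_bot_iff, Nc, Subgroup.closure_le]
  rintro _ ⟨a, -, rfl⟩
  simp

variable {g : ℕ → G} {step : ℕ → ℕ → ℕ} {x0 : ℕ} {St : ℕ → G → Prop}

/-- every `a` with `a * a = z` is conjugate to one of the representatives -/
noncomputable def sqB (step : ℕ → ℕ → ℕ) (x0 : ℕ) (gs : List (ℕ × ℕ)) (z : ℕ) (reps : List (ℕ × ℕ))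
    (wits : List (ℕ × ℕ × ℕ)) : Bool :=
  pcAll step (fun idx l x => Bool.rec true (anyL (witB step x0 reps idx l) wits) (tst step x0 x l [z])) gs 0 [] x0

theorem sqB_sound (M : Mod g step x0 St) {gs reps : List (ℕ × ℕ)} {z : ℕ} {wits : List (ℕ × ℕ × ℕ)}
    (h : sqB step x0 gs z reps wits = true) {a : G} (ha : a ∈ NF g gs) (h2 : a * a = ev g z) :
    ∃ r ∈ reps, ∃ c, inA r.2 c = true ∧ ev g c * ev g r.1 * (ev g c)⁻¹ = a := by
  obtain ⟨idx, l, x, rfl, h1, h3⟩ := pcAll_forall M.step M.one h ha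
  rw [(M.tst_iff h1 l [z]).2 (by rwa [evL_one])] at h3
  obtain ⟨s, -, h4⟩ := anyL_sound h3
  exact witB_sound M h4

/-- the word is an involution different from `s` -/
noncomputable def invoB (step : ℕ → ℕ → ℕ) (x0 s : ℕ) (r : List ℕ) : Bool :=
  force (actL step r x0) fun y => band (Nat.beq (actL step r y) x0)
    (Bool.rec (Bool.rec true false (Nat.beq y (act step s x0))) false (Nat.beq y x0))

theorem invoB_sound (M : Mod g step x0 St) {s : ℕ} {r : List ℕ} (h : invoB step x0 s r = true) :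
    evL g r * evL g r = 1 ∧ evL g r ≠ 1 ∧ evL g r ≠ ev g s := by
  rw [invoB, force_eq] at h
  obtain ⟨h1, h2⟩ := band_eq_true.1 h
  have h3 := M.st_actL r
  refine ⟨(M.beq_iff (actL_rel M.step r h3) M.one).1 h1, fun e => ?_, fun e => ?_⟩
  · rw [(M.beq_iff h3 M.one).2 e] at h2
    exact absurd h2 (by simp)
  · rw [(M.beq_iff h3 (by simpa using act_rel M.step s M.one)).2 e] at h2
    revert h2
    cases Nat.beq (actL step r x0) x0 <;> simp

/-- for every `a` of order three the square of some `a * a * (b * a * b')` is an involution different from `s` -/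
noncomputable def nrmB (step : ℕ → ℕ → ℕ) (x0 : ℕ) (gs : List (ℕ × ℕ)) (s : ℕ) (bs : List (ℕ × ℕ)) : Bool :=
  pcAll step (fun _ l x => Bool.rec true (Bool.rec (anyL (fun b => invoB step x0 s
    (app (app l (app l (b.1 :: app l [b.2]))) (app l (app l (b.1 :: app l [b.2]))))) bs) true (Nat.beq x x0))
    (tst step x0 x (app l l) [])) gs 0 [] x0

theorem nrmB_sound (M : Mod g step x0 St) {gs bs : List (ℕ × ℕ)} {s : ℕ} (h : nrmB step x0 gs s bs = true) {a : G}
    (ha : a ∈ NF g gs) (h1 : a ≠ 1) (h3 : a * a * a = 1) : ∃ b ∈ bs, ∃ c, c = a * (a * (ev g b.1 * a * ev g b.2)) ∧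
      c * c * (c * c) = 1 ∧ c * c ≠ 1 ∧ c * c ≠ ev g s := by
  obtain ⟨idx, l, x, rfl, h4, h5⟩ := pcAll_forall M.step M.one h ha
  rw [(M.tst_iff h4 _ []).2 (by rwa [app_eq, evL_append]),
    Bool.eq_false_iff.2 fun e => h1 ((M.beq_iff h4 M.one).1 e)] at h5
  obtain ⟨b, hb, h6⟩ := anyL_sound h5
  have h7 := invoB_sound M h6
  simp only [app_eq, evL_append, evL_cons, evL_nil, mul_one] at h7
  exact ⟨b, hb, _, rfl, by simpa only [mul_assoc] using h7⟩

end gen

open CfsgLib.Co3Rec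

/-- the words have order dividing three, lie in `L` and commute with `s` -/
noncomputable def oddB (s : ℕ) (ws : List ℕ) : Bool :=
  allL (fun w => band (inA AL w) (band (chk ([w, w, w], [])) (chk ([s, w], [w, s])))) ws

theorem oddB_sound {s : ℕ} {ws : List ℕ} (h : oddB s ws = true) {s' : L} (hs : (s' : X) = ev g s) {v : L}
    (hv : (v : X) = evL g ws) : v ∈ Wf (MulAut.conj s') := by
  induction ws generalizing v with
  | nil => rw [show v = 1 from Subtype.ext hv]; exact Subgroup.one_mem _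
  | cons w ws ih =>
    obtain ⟨h1, h2⟩ := band_eq_true.1 h
    obtain ⟨h3, h1⟩ := band_eq_true.1 h1
    obtain ⟨h4, h5⟩ := band_eq_true.1 h1
    have h6 := mod.eq h4
    rw [evL_three, evL_nil] at h6
    let a : L := ⟨ev g w, ev_mem inAL h3⟩
    rw [← mul_inv_cancel_left a v]
    refine Subgroup.mul_mem _ (mem_Wf_conj (Odd.of_dvd_nat (by decide : Odd 3) (orderOf_dvd_of_pow_eq_one
      (Subtype.ext ?_))) (Subtype.ext ?_)) (ih h2 ?_)
    · exact (pow_three' (ev g w)).trans h6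
    · change (s' : X) * ev g w = ev g w * s'
      rw [hs]; exact eq2 h5
    · change (ev g w)⁻¹ * (v : X) = _
      rw [hv, evL_cons, inv_mul_cancel_left]

/-- the central involution -/
noncomputable def zL : L := ⟨z, z_mem⟩

theorem conj_zL (k : L) : MulAut.conj k zL = zL := Subtype.ext (mul_inv_eq_iff_eq_mul.2 (comm_z k.2))

theorem z_wf {s : ℕ} {ws : List ℕ} (h : band (oddB s ws) (chk ([8], ws)) = true) {l : L} {k : X} (hk : k ∈ L)
    (e : k * ev g s * k⁻¹ = l) : zL ∈ Wf (MulAut.conj l) := by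
  obtain ⟨h1, h2⟩ := band_eq_true.1 h
  have h3 := mod.eq h2
  rw [evL_one] at h3
  have := wf_map (oddB_sound h1 (s' := (MulAut.conj (⟨k, hk⟩ : L)).symm l) (v := zL)
    (by change k⁻¹ * l * k = _; rw [← e]; group) h3) (MulAut.conj ⟨k, hk⟩)
  rwa [conj_zL, MulEquiv.apply_symm_apply] at this

def witQ : List (ℕ × ℕ × ℕ) := [(7, 1, 0xa09901), (19, 1, 0x979f), (20, 1, 0x6d37), (24, 1, 0x905f4d), (28, 1, 0xa091), (36, 1, 0x916737), (40, 1, 0x6143), (44, 1, 0x975f43), (52, 1, 0x9f99), (56, 1, 0x915f37), (60, 1, 0x5f37), (61, 1, 89), (64, 1, 151), (71, 1, 0x7d11), (83, 1, 0x792b), (128, 1, 0), (171, 0, 0xa002), (189, 1, 93), (191, 0, 0x4102), (192, 1, 145), (199, 1, 0x3f25), (211, 1, 0x2706), (257, 1, 79), (276, 1, 0x614d), (277, 1, 69), (280, 1, 0x904f37), (284, 1, 0x9f91), (292, 1, 0x966737), (296, 1, 0x5937), (297, 1, 97), (299, 1, 0x963d06), (300, 1, 0x905937), (308, 1, 0x9997), (312, 1, 0xa09637), (316, 1, 0x5943), (319, 1, 0x97a0),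 (320, 0, 0x7d02), (363, 1, 0xa111), (383, 1, 0x6f01), (384, 0, 105), (385, 1, 101), (391, 0, 17), (403, 0, 0x8911), (405, 1, 107), (425, 1, 85), (448, 0, 0x3f37), (491, 1, 0x332f), (511, 1, 0x9919), (519, 1, 0x907901), (531, 1, 0x90a0), (532, 1, 0x4f37), (536, 1, 0xa19937), (540, 1, 0xa191), (548, 1, 0x915937), (552, 1, 0x5f43), (556, 1, 0x905f43), (564, 1, 0x9f3306), (568, 1, 0x965f37), (572, 1, 0x6137), (573, 1, 103), (576, 1, 144), (583, 1, 0x7b01), (595, 1, 0x751d), (640, 1, 7), (683, 0, 160), (701, 1, 77), (703, 0, 65), (704, 1, 0x5106), (711, 1, 0x3331), (723, 1, 0x1b19), (769, 1, 109), (788, 1, 0x5f4d), (789, 1, 113), (792, 1, 0x906d37), (796, 1, 0x9f5106), (804, 1, 0x965937), (808, 1, 0x6737), (809, 1, 95), (811, 1, 0x977901), (812, 1, 0x975937), (820, 1, 0x9990), (824, 1, 0x965943), (828, 1, 0x6743), (831, 1, 0x909f), (832, 0, 125), (875, 1, 0x9f11), (895, 1, 0x7d41), (896, 0, 0x6902), (897, 1, 67), (903, 0, 0x1102),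 (915, 0, 0x8811), (917, 1, 55), (937, 1, 87), (960, 0, 0x4531), (1003, 1, 0x3d25), (1023, 1, 0x5306)]

theorem sqS : sqB st x0 gsS 8 [(1, AL), (130, AL)] witQ = true := by decide +kernel

theorem inn (l : L) (h1 : l ≠ 1) (h2 : l ≠ zL) (h3 : l * l = 1 ∨ l * l = zL) : zL ∈ Wf (MulAut.conj l) := by
  rcases h3 with h3 | h3
  · rcases invol_L l.2 (congrArg Subtype.val h3) with e | e | ⟨k, hk, e⟩ | ⟨k, hk, e⟩
    · exact absurd (Subtype.ext e) h1
    · exact absurd (Subtype.ext e) h2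
    · exact z_wf (ws := [142, 525, 1048]) (by decide +kernel) hk e
    · exact z_wf (ws := [159, 10460572, 685527206042]) (by decide +kernel) hk e
  · have h4 : (l : X) * l = z := congrArg Subtype.val h3
    obtain ⟨k, hk, h5⟩ := exists_conj_mem S_le card_S (by rw [card_L]; norm_num) l.2 (e := 2)
      (by rw [← zz, ← h4, show 2 ^ 2 = 4 from rfl]; simp only [pow_succ, pow_zero, one_mul, mul_assoc])
    obtain ⟨r, hr, c, h6, h7⟩ := sqB_sound mod sqS (mem_NF holds pcS h5)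
      (by rw [conj_mul, h4, (comm_z hk).eq, mul_inv_cancel_right])
    simp only [List.mem_cons, List.not_mem_nil, or_false] at hr
    have h8 : k⁻¹ * ev g c * ev g r.1 * (k⁻¹ * ev g c)⁻¹ = l := by
      calc _ = k⁻¹ * (ev g c * ev g r.1 * (ev g c)⁻¹) * k := by group
        _ = l := by rw [h7]; group
    rcases hr with rfl | rfl <;>
      exact z_wf (ws := [142, 525, 1048]) (by decide +kernel) (L.mul_mem (L.inv_mem hk) (ev_mem inAL h6)) h8

theorem nrm_of {s : ℕ} {gs bs : List (ℕ × ℕ)} {rel : List (List ℕ × List (List ℕ))} {s' : L} (hs : (s' : X) = ev g s)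
    (hc : ∀ c ∈ L, Commute c (ev g s) → c ∈ cl g (gs.map Prod.fst)) (hp : pcB chk gs [] rel = true)
    (hN : Nat.card (cl g (gs.map Prod.fst)) ∣ 6 ^ 9) (h : nrmB st x0 gs s bs = true)
    (hb : allL (fun b => band (inA AL b.1) (band (chk ([b.1, b.2], [])) (chk ([b.1, s], [s, b.1])))) bs = true) :
    Nrm s' := fun w h1 h2 => by
  by_cases h3 : w = 1
  · left; rw [h3, Nc_one]; simp
  right
  obtain ⟨p, hp1, hp2⟩ := Nat.exists_prime_and_dvd (orderOf_eq_one_iff.not.2 h3)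
  have h4 : (w : X) ∈ cl g (gs.map Prod.fst) := hc _ w.2 (hs ▸ h2.map L.subtype)
  have h5 : p ∣ 6 ^ 9 := hp2.trans ((Subgroup.orderOf_coe w ▸ Subgroup.orderOf_dvd_natCard _ h4).trans hN)
  obtain rfl : p = 3 := by
    rcases (Nat.Prime.dvd_mul hp1).1 (show p ∣ 2 * 3 from hp1.dvd_of_dvd_pow h5) with h6 | h6
    · rw [(Nat.prime_dvd_prime_iff_eq hp1 Nat.prime_two).1 h6] at hp2
      exact absurd (h1.of_dvd_nat hp2) (by decide)
    · exact (Nat.prime_dvd_prime_iff_eq hp1 Nat.prime_three).1 h6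
  have h6 := orderOf_pow_orderOf_div (orderOf_pos w).ne' hp2
  generalize orderOf w / 3 = n at h6
  obtain ⟨b, hb1, c, h7, h8, h9, h10⟩ := nrmB_sound mod h (mem_NF holds hp (Subgroup.pow_mem _ h4 n))
    (fun e => by rw [show w ^ n = 1 from Subtype.ext e] at h6; simp at h6)
    (by rw [← pow_three', ← h6]; exact congrArg Subtype.val (pow_orderOf_eq_one (w ^ n)))
  obtain ⟨b1, b2⟩ := band_eq_true.1 (allL_sound hb b hb1)
  obtain ⟨b2, b3⟩ := band_eq_true.1 b2
  have b4 := mod.eq b2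
  rw [evL_two, evL_nil] at b4
  let u : L := ⟨ev g b.1, ev_mem inAL b1⟩
  have a1 : w ^ n ∈ Nc s' w := Subgroup.pow_mem _ (self_mem_Nc _ _) n
  have a2 := Subgroup.mul_mem _ a1 (Subgroup.mul_mem _ a1 (conj_mem_Nc (a := u) (Subtype.ext (by
    change ev g b.1 * s' = s' * ev g b.1
    rw [hs]; exact eq2 b3)) a1))
  have a3 : ((w ^ n * (w ^ n * (u * w ^ n * u⁻¹)) : L) : X) = c := by
    rw [h7, eq_inv_of_mul_eq_one_right b4]; rfl
  refine ⟨_, Subgroup.mul_mem _ a2 a2, Subtype.ext ?_, fun e => h9 ?_, fun e => h10 ?_⟩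
  · rw [← a3] at h8; exact h8
  · rw [← a3]; exact congrArg Subtype.val e
  · rw [← a3, ← hs]; exact congrArg Subtype.val e

theorem fix_of {s sz : ℕ} {gs : List (ℕ × ℕ)} {vs : List (ℕ × List ℕ)} {rel : List (List ℕ × List (List ℕ))} {s' : L}
    (hs : (s' : X) = ev g s) (hc : ∀ c ∈ L, Commute c (ev g s) → c ∈ cl g (gs.map Prod.fst))
    (hp : pcB chk gs [] rel = true) (h : centB st x0 gs (vs.map fun v => (v.1, v.1)) [0, 8, s, sz] = true)
    (hv : band (chk ([sz], [s, 8])) (allL (fun v => band (inA AL v.1) (band (oddB s v.2)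
      (band (chk ([v.1], v.2)) (chk (List.replicate 4 v.1, []))))) vs) = true) : Fix zL s' := fun a h1 h2 => by
  obtain ⟨h3, hv⟩ := band_eq_true.1 hv
  have h4 := mod.eq h3
  rw [evL_one, evL_two] at h4
  obtain ⟨u, hu, e⟩ := centB_sound mod h (mem_NF holds hp (hc _ a.2 (hs ▸ h1.map L.subtype))) fun p hp => by
    obtain ⟨v, hv1, rfl⟩ := List.mem_map.1 hp
    obtain ⟨b1, b2⟩ := band_eq_true.1 (allL_sound hv v hv1)
    obtain ⟨b2, b3⟩ := band_eq_true.1 b2
    obtain ⟨b3, b4⟩ := band_eq_true.1 b3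
    have b5 := mod.eq b3
    have b6 := mod.eq b4
    rw [evL_one] at b5
    rw [evL_replicate, evL_nil] at b6
    exact congrArg Subtype.val (h2 ⟨ev g v.1, ev_mem inAL b1⟩ (oddB_sound b2 hs b5) ⟨2, Subtype.ext b6⟩).eq
  simp only [List.mem_cons, List.not_mem_nil, or_false] at hu
  rcases hu with rfl | rfl | rfl | rfl
  · exact Or.inl (Subtype.ext e)
  · exact Or.inr (Or.inl (Subtype.ext e))
  · exact Or.inr (Or.inr (Or.inl (Subtype.ext (e.trans hs.symm))))
  · exact Or.inr (Or.inr (Or.inr (Subtype.ext (by rw [e, h4, ← hs]; rfl))))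

theorem nrmK : nrmB st x0 gsK 129 [(130, 131), (138, 139)] = true := by decide +kernel

theorem nrmY : nrmB st x0 gsY 154 [(0x9c9b, 0x9b9c)] = true := by decide +kernel

def vK : List (ℕ × List ℕ) := [(0x8e0214, [142, 532]), (0x8e0215, [142, 533]), (0x908291, [144, 33425]),
  (0x908591, [144, 34193])]

def vY : List (ℕ × List ℕ) := [(0x9f9ca0, [159, 40096]), (0x9f81a0, [159, 33184]), (0x9fa081, [159, 41089]),
  (0x9fa09c, [159, 41116])]

theorem fixK : centB st x0 gsK (vK.map fun v => (v.1, v.1)) [0, 8, 129, 0x8108] = true := by decide +kernel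

theorem fixY : centB st x0 gsY (vY.map fun v => (v.1, v.1)) [0, 8, 154, 0x9a08] = true := by decide +kernel

theorem both (s : L) (h1 : s * s = 1) (h2 : s ≠ 1) (h3 : s ≠ zL) : Nrm s ∧ Fix zL s := by
  have key : ∀ (w : ℕ) (hw : ev g w ∈ L), Nrm (⟨ev g w, hw⟩ : L) → Fix zL ⟨ev g w, hw⟩ → ∀ k ∈ L,
      k * ev g w * k⁻¹ = s → Nrm s ∧ Fix zL s := fun w hw a1 a2 k hk e => by
    have a3 : MulAut.conj (⟨k, hk⟩ : L) ⟨ev g w, hw⟩ = s := Subtype.ext e
    exact ⟨a3 ▸ a1.map _, a3 ▸ conj_zL ⟨k, hk⟩ ▸ a2.map _⟩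
  rcases invol_L s.2 (congrArg Subtype.val h1) with e | e | ⟨k, hk, e⟩ | ⟨k, hk, e⟩
  · exact absurd (Subtype.ext e) h2
  · exact absurd (Subtype.ext e) h3
  · exact key 129 x_mem (nrm_of rfl (fun _ => cent_x) pcK (by rw [card_K]; norm_num) nrmK (by decide +kernel))
      (fix_of rfl (fun _ => cent_x) pcK fixK (by decide +kernel)) k hk e
  · exact key 154 y_mem (nrm_of rfl (fun _ => cent_y) pcY (by rw [card_Y]; norm_num) nrmY (by decide +kernel))
      (fix_of rfl (fun _ => cent_y) pcY fixY (by decide +kernel)) k hk e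

theorem good (hI : Inner L) (hc : ∀ c, c ∈ Subgroup.center L ↔ c = 1 ∨ c = zL) : Good zL :=
  good_of_inner hI (fun e => z_ne (congrArg Subtype.val e)) (Subtype.ext zz) hc inn
    (fun s w h1 h2 h3 => (both s h1 h2 h3).1 w) fun s a h1 h2 h3 h4 _ => (both s h1 h2 h3).2 a h4

end CfsgLib.StdInt.S6
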