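import Mathlib
import Cfsg.Agent.Lib.StdInt.Cover
import Cfsg.Agent.Lib.StdInt.Sp62M
import Cfsg.Agent.Lib.Co3Rec.Loc
import Cfsg.Agent.Lib.LieModel.Sp62.Iso
import Cfsg.Agent.S0814

/-! The facts of `StdInt.Defs` for `2 · Sp(6, 2)`. -/

set_option autoImplicit false

namespace CfsgLib.StdInt

open CfsgLib.Comput CfsgLib.Amalg

theorem dbl_nonsplit {L Q : Type*} [Group L] [Group Q] {σ : L →* Q} {t : L} (h : McLRec.Dbl σ t) :
    Cfsg.IsNonsplitDoubleCover L Q := by
  have h1 : Subgroup.center L = σ.ker := Subgroup.ext fun x => (h.cent x).trans (h.ker x).symm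
  have h2 : Subgroup.center L = Subgroup.zpowers t := Subgroup.ext fun x => ⟨fun hx => ((h.cent x).1 hx).elim
    (fun e => e ▸ Subgroup.one_mem _) fun e => e ▸ Subgroup.mem_zpowers _,
    fun hx => Subgroup.zpowers_le_of_mem h.cen hx⟩
  refine ⟨by rw [h2, Nat.card_zpowers, h.ord], ⟨(QuotientGroup.quotientMulEquivOfEq h1).trans
    (QuotientGroup.quotientKerEquivOfSurjective σ h.surj)⟩, fun K hK => ?_⟩
  have h3 : Function.Bijective (σ.comp K.subtype) := by
    refine ⟨(injective_iff_map_eq_one _).2 fun x hx => Subtype.ext ?_, fun q => ?_⟩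
    · exact Subgroup.disjoint_def.1 hK.disjoint (h1 ▸ hx) x.2
    · obtain ⟨x, rfl⟩ := h.surj q
      obtain ⟨⟨c, k⟩, rfl⟩ := hK.2 x
      refine ⟨k, ?_⟩
      change σ k = σ (c * k)
      rw [map_mul, show σ c = 1 from (h1 ▸ c.2 : (c : L) ∈ σ.ker), one_mul]
  exact h.nonsplit (K.subtype.comp (MulEquiv.ofBijective _ h3).symm.toMonoidHom)
    (MonoidHom.ext fun q => (MulEquiv.ofBijective _ h3).apply_symm_apply q)

theorem spin_perfect {C : Type*} [Group C] {s : ℕ → C} {t : C} (h : Sp62.Spin s t) (ht : cl s Sp62.gens = ⊤) :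
    commutator C = ⊤ := by
  have h1 := h.map Abelianization.of
  generalize hf : (fun i => Abelianization.of (s i)) = f at h1
  have h2 : ∀ e ∈ Sp62.edges, f e.1 = f e.2 := fun e he => by
    have := h1.br e he
    rw [mul_comm (f e.1) (f e.2)] at this
    exact mul_left_cancel this
  have h3 : Abelianization.of t = 1 := by
    have := h1.ac (0, 1) (by decide)
    rwa [mul_assoc, mul_comm (f 1), eq_comm, mul_eq_right] at this
  have e0 : f 0 = f 2 := h2 (0, 2) (by decide)
  have e2 : f 2 = f 3 := h2 (2, 3) (by decide)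
  have e3 : f 3 = f 4 := h2 (3, 4) (by decide)
  have e4 : f 4 = f 5 := h2 (4, 5) (by decide)
  have e5 : f 5 = f 6 := h2 (5, 6) (by decide)
  have e1 : f 1 = f 3 := h2 (1, 3) (by decide)
  have h4 := h1.c9
  have h5 := h1.sq 6 (by norm_num)
  rw [h3] at h5
  rw [e0, e1, e2, e3, e4, e5, h5, one_mul, h5, one_mul, h5, one_mul, show 9 = 2 * 4 + 1 from rfl, pow_succ, pow_mul,
    pow_two, h5, one_pow, one_mul] at h4
  rw [eq_top_iff, ← ht, Sp62.ev_gens, ← Abelianization.ker_of]
  intro i hi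
  change (fun i => Abelianization.of (s i)) i = 1
  rw [hf]
  interval_cases i <;> simp only [e0, e1, e2, e3, e4, e5, h4]

theorem inner_of_card {G : Type*} [Group G] [Finite G] (hZ : Subgroup.center G = ⊥)
    (h : Nat.card (MulAut G) = Nat.card G) : Inner G := fun φ => by
  have h1 : Function.Injective (MulAut.conj : G →* MulAut G) := (injective_iff_map_eq_one _).2 fun a ha => by
    rw [← Subgroup.mem_bot, ← hZ, Subgroup.mem_center_iff]
    exact fun x => (mul_inv_eq_iff_eq_mul.1 (DFunLike.congr_fun ha x)).symm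
  have : Finite (MulAut G) := Nat.finite_of_card_ne_zero (h ▸ Nat.card_pos.ne')
  exact (((Nat.bijective_iff_injective_and_card _).2 ⟨h1, h.symm⟩).2 φ).imp fun _ => Eq.symm

theorem inner_sp62 : Inner Sp62.Sp := by
  obtain ⟨e⟩ := LieModel.Sp62.iso (F := ZMod 2) (ZMod.card 2)
  let e' := MulEquiv.ofBijective (QuotientGroup.mk' (Subgroup.center Sp62.Sp))
    ((Nat.bijective_iff_surjective_and_card _).2 ⟨QuotientGroup.mk'_surjective _,
      Sp62.card_Sp.trans LieModel.Sp62.card_G.symm⟩)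
  refine Inner.map e'.symm (inner_of_card ?_ ?_)
  · refine eq_bot_iff.2 fun a ha => ?_
    rw [Subgroup.mem_bot, ← e.map_eq_one_iff, ← Subgroup.mem_bot, ← LieModel.Sp62.center_PG,
      Subgroup.mem_center_iff, e.surjective.forall]
    exact fun x => by rw [← map_mul, ← map_mul, Subgroup.mem_center_iff.1 ha x]
  · simpa using Cfsg.Agent.S0814.result (F := ZMod 2) 2 1 le_rfl (ZMod.card 2) 3 (by norm_num) (by norm_num)

theorem spin_equiv {C : Type*} [Group C] [Finite C] {s : ℕ → C} {t : C} (h : Sp62.Spin s t)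
    (ht : cl s Sp62.gens = ⊤) (hC : Nat.card C = 2903040) : ∃ e : C ≃* Co3Rec.L, e t = S6.zL := by
  have h1 := h.prod Co3Rec.spin
  have h2 : Graph (cl (fun j => (s j, Co3Rec.g j)) Sp62.gens) :=
    graph_of_card (by rw [map_fst_cl, ht, Subgroup.card_top, hC]; exact h1.card_le)
      (by rw [map_snd_cl, Co3Rec.card_L]; exact h1.card_le)
  obtain ⟨φ, h3, h4⟩ := h2.exists_hom fun a => by
    have : a ∈ (cl (fun j => (s j, Co3Rec.g j)) Sp62.gens).map (MonoidHom.fst _ _) := by
      rw [map_fst_cl, ht]; trivial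
    obtain ⟨p, hp, rfl⟩ := this
    exact ⟨p.2, hp⟩
  have h5 : ∀ a, φ a ∈ Co3Rec.L := fun a => by
    rw [Co3Rec.L, ← map_snd_cl s Co3Rec.g]
    exact ⟨_, (h4 a _).2 rfl, rfl⟩
  refine ⟨MulEquiv.ofBijective (φ.codRestrict _ h5) ((Nat.bijective_iff_injective_and_card _).2
    ⟨fun a b e => h3 (congrArg Subtype.val e), hC.trans Co3Rec.card_L.symm⟩), Subtype.ext ((h4 t _).1 ?_)⟩
  change (t, Co3Rec.z) ∈ _
  rw [← h1.sq 0 (by norm_num)]
  exact Subgroup.mul_mem _ (Sp62.mem_gens _ (by norm_num)) (Sp62.mem_gens _ (by norm_num))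

theorem sp62_good {L : Type*} [Group L] [Finite L] {σ : L →* Sp62.Sp} {t : L} (h : McLRec.Dbl σ t) :
    Good t ∧ Inner L := by
  obtain ⟨s, h1, h2, h3⟩ := Sp62.exists_spin h.ord h.cen (dbl_nonsplit h)
  obtain ⟨e, he⟩ := spin_equiv h1 h2 h3
  have h4 := dbl_inner h (spin_perfect h1 h2) inner_sp62
  refine ⟨?_, h4⟩
  rw [← e.symm_apply_apply t, he]
  refine (S6.good (h4.map e) fun c => ?_).map e.symm
  obtain ⟨c, rfl⟩ := e.surjective c
  rw [← he, e.map_eq_one_iff, e.apply_eq_iff_eq, ← h.cent, Subgroup.mem_center_iff, Subgroup.mem_center_iff,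
    e.surjective.forall]
  exact forall_congr' fun x => comm_map e

end CfsgLib.StdInt
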